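import Mathlib
import Cfsg.Agent.Core.CoprimeGen
import Cfsg.Agent.Core.SylowOf
import Cfsg.Agent.LeU.Inv3

/-!
Coprime action of an abelian group of rank three: derived subgroups of the fixed points.
-/

set_option autoImplicit false
set_option linter.unusedSectionVars false
set_option linter.unusedVariables false

namespace Cfsg.Agent.Gsh

open Subgroup Cfsg.Agent.Core

variable {G : Type*} [Group G] [Finite G]

theorem prod_step {ι : Type*} {X X' : Subgroup G} (h1 : ⁅X, X⁆ ≤ X') (h2 : X' ≤ X) (U W : ι → Subgroup G)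
    (hU : ∀ i, U i ≤ X) (hW : ∀ i, W i ≤ X' ⊓ U i) (s : Finset ι) :
    ∃ T : Subgroup G, X' ≤ T ∧ T ≤ X ∧ (∀ i ∈ s, U i ≤ T) ∧
      Nat.card T * ∏ i ∈ s, Nat.card (W i) ≤ Nat.card X' * ∏ i ∈ s, Nat.card (U i) := by
  classical
  induction s using Finset.induction_on with
  | empty => exact ⟨X', le_rfl, h2, by simp, by simp⟩
  | insert j s hj ih =>
    obtain ⟨T, t1, t2, t3, t4⟩ := ih
    have e := card_sup_mul_card_inf (N := T) (H := U j) (le_normalizer_iff_commutator_le_left.2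
      ((commutator_mono t2 (hU j)).trans (h1.trans t1)))
    have e' : Nat.card (W j) ≤ Nat.card ↥(T ⊓ U j) := card_le_of_le ((hW j).trans (inf_le_inf_right _ t1))
    refine ⟨T ⊔ U j, t1.trans le_sup_left, sup_le t2 (hU j), fun i hi => ?_, ?_⟩
    · rcases Finset.mem_insert.1 hi with rfl | hi
      exacts [le_sup_right, (t3 i hi).trans le_sup_left]
    · rw [Finset.prod_insert hj, Finset.prod_insert hj]
      calc _ ≤ Nat.card ↥(T ⊔ U j) * Nat.card ↥(T ⊓ U j) * ∏ i ∈ s, Nat.card (W i) := by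
            rw [mul_assoc]; gcongr
        _ = Nat.card (U j) * (Nat.card T * ∏ i ∈ s, Nat.card (W i)) := by rw [e]; ring
        _ ≤ Nat.card (U j) * (Nat.card X' * ∏ i ∈ s, Nat.card (U i)) := by gcongr
        _ = _ := by ring

/-- the subgroups with cyclic quotient -/
def Co (A B : Subgroup G) : Prop := B ≤ A ∧ ∃ a ∈ A, B ⊔ zpowers a = A

theorem gen {A K L : Subgroup G} (hA : IsMulCommutative A) (hAK : A ≤ normalizer (K : Set G))
    (hcop : (Nat.card A).Coprime (Nat.card K)) (h : ∀ B, Co A B → K ⊓ centralizer (B : Set G) ≤ L) :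
    K ≤ L := le_of_centralizers_cocyclic hA hAK hcop fun B h1 h2 => h B ⟨h1, h2⟩

theorem card_map_le {Y : Type*} [Group Y] [Finite Y] (f : G →* Y) {A : Subgroup G} (hA : IsMulCommutative A)
    (s : Finset (Subgroup G)) (hs : ∀ B, Co A B → B ∈ s) {p : ℕ} [Fact p.Prime] (K : Subgroup G) :
    IsPGroup p K → A ≤ normalizer (K : Set G) → (Nat.card A).Coprime (Nat.card K) →
      Nat.card (K.map f) ≤ ∏ B ∈ s, Nat.card ((K ⊓ centralizer (B : Set G)).map f) := by
  induction K using WellFoundedLT.induction with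
  | ind K ih =>
  intro hp hn hc
  rcases eq_or_ne K ⊥ with rfl | h0
  · rw [Subgroup.map_bot, card_bot]
    exact Finset.one_le_prod' fun _ _ => Nat.card_pos
  have hlt : ⁅K, K⁆ < K := by
    have := hp.isNilpotent
    exact commutator_lt_of_solvable inferInstance h0
  have h1 := ih _ hlt (hp.to_le hlt.le) (le_normalizer_commutator hn hn)
    (hc.coprime_dvd_right (card_dvd_of_le hlt.le))
  obtain ⟨T, -, t2, t3, t4⟩ := prod_step (X := K.map f) (X' := ⁅K, K⁆.map f) (map_commutator ..).ge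
    (map_mono hlt.le) (fun B : Subgroup G => (K ⊓ centralizer (B : Set G)).map f)
    (fun B => (⁅K, K⁆ ⊓ centralizer (B : Set G)).map f) (fun B => map_mono inf_le_left)
    (fun B => le_inf (map_mono inf_le_left) (map_mono (inf_le_inf_right _ hlt.le))) s
  have e : K.map f ≤ T := map_le_iff_le_comap.2 (gen hA hn hc fun B hB =>
    map_le_iff_le_comap.1 (t3 B (hs B hB)))
  have h2 := ((Nat.mul_le_mul_right _ (card_le_of_le e)).trans t4).trans (Nat.mul_le_mul_right _ h1)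
  rw [mul_comm (Nat.card (K.map f))] at h2
  exact Nat.le_of_mul_le_mul_left h2 (Finset.prod_pos fun _ _ => Nat.card_pos)

theorem card_map_le' {Y : Type*} [Group Y] [Finite Y] (f : G →* Y) {A K : Subgroup G}
    (hA : IsMulCommutative A) (hn : A ≤ normalizer (K : Set G)) (hc : (Nat.card A).Coprime (Nat.card K))
    {n : ℕ} (h : ∀ B, Co A B → Nat.card ((K ⊓ centralizer (B : Set G)).map f) ≤ n) :
    Nat.card (K.map f) ≤ ((n + 1) ^ 2 ^ Nat.card A).factorial := by
  classical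
  let s := (Set.toFinite {B | Co A B}).toFinset
  have hs : ∀ B, B ∈ s ↔ Co A B := fun B => Set.Finite.mem_toFinset _
  have cs : s.card ≤ 2 ^ Nat.card A := by
    have := Nat.card_le_card_of_injective (fun B : s => fun a : A => a.1 ∈ B.1) fun B B' e =>
      Subtype.ext (le_antisymm (fun x hx => (congrFun e ⟨x, ((hs _).1 B.2).1 hx⟩).mp hx)
        fun x hx => (congrFun e ⟨x, ((hs _).1 B'.2).1 hx⟩).mpr hx)
    rwa [Nat.card_fun, Nat.card_eq_fintype_card (α := Prop), Fintype.card_prop,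
      Nat.card_eq_fintype_card (α := s), Fintype.card_coe] at this
  refine Nat.le_of_dvd (Nat.factorial_pos _) ((Nat.dvd_iff_prime_pow_dvd_dvd _ _).2 fun p k hp hk => ?_)
  have := Fact.mk hp
  obtain ⟨P, hP, hAP⟩ := exists_invariant_isSylowOf A K hn hc (.inl (Group.isSolvable_of_comm hA.is_comm.comm)) p
  have h1 := card_map_le f hA s (fun B => (hs B).2) P hP.isPGroup hAP
    (hc.coprime_dvd_right (card_dvd_of_le hP.le))
  rw [(hP.map f).card_eq_pow] at h1
  refine Nat.dvd_factorial (pow_pos hp.pos k) ((Nat.pow_le_pow_right hp.pos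
    ((hp.pow_dvd_iff_le_factorization Nat.card_pos.ne').1 hk)).trans (h1.trans
      ((Finset.prod_le_pow_card s _ (n + 1) fun B hB => ?_).trans (Nat.pow_le_pow_right n.succ_pos cs))))
  exact (card_le_of_le (map_mono (inf_le_inf_right _ hP.le))).trans ((h B ((hs B).1 hB)).trans n.le_succ)

/-- the elements whose commutator with `c` lies in `H` -/
def cm (H : Subgroup G) (c : G) : Subgroup G where
  carrier := {y | y ∈ normalizer (H : Set G) ∧ c * y * c⁻¹ * y⁻¹ ∈ H}
  one_mem' := ⟨one_mem _, by simp⟩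
  mul_mem' := fun {y z} hy hz => ⟨mul_mem hy.1 hz.1, by
    have := mul_mem hy.2 ((mem_normalizer_iff.1 hy.1 _).1 hz.2)
    rwa [show c * y * c⁻¹ * y⁻¹ * (y * (c * z * c⁻¹ * z⁻¹) * y⁻¹) = c * (y * z) * c⁻¹ * (y * z)⁻¹ by group]
      at this⟩
  inv_mem' := fun {y} hy => ⟨inv_mem hy.1, by
    have := (mem_normalizer_iff.1 (inv_mem hy.1) _).1 (inv_mem hy.2)
    rwa [show y⁻¹ * (c * y * c⁻¹ * y⁻¹)⁻¹ * y⁻¹⁻¹ = c * y⁻¹ * c⁻¹ * y⁻¹⁻¹ by group] at this⟩

theorem main {A K : Subgroup G} [K.Normal] (hA : IsMulCommutative A)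
    (hc : (Nat.card A).Coprime (Nat.card K)) (hr : ∀ B B', Co A B → Co A B' → B ⊓ B' ≠ ⊥) {m : ℕ}
    (h : ∀ a ∈ A, a ≠ 1 → Nat.card ↥⁅K ⊓ centralizer {a}, K ⊓ centralizer {a}⁆ ≤ m) {M b : ℕ}
    (hM : M = Nat.card A * m) (hb : b = (((M + 1) ^ M + 1) ^ 2 ^ Nat.card A).factorial) :
    Nat.card ↥⁅K, K⁆ ≤ b ^ (b * (b * b) + 1) * m.factorial ^ M := by
  classical
  have := Fintype.ofFinite G
  have hn : A ≤ normalizer (K : Set G) := le_normalizer_of_normal
  obtain ⟨D, hD⟩ : ∃ D : G → Subgroup G, ∀ a, D a = ⁅K ⊓ centralizer {a}, K ⊓ centralizer {a}⁆ :=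
    ⟨_, fun _ => rfl⟩
  simp only [← hD] at h
  have DK : ∀ a, D a ≤ ⁅K, K⁆ := fun a => hD a ▸ commutator_mono inf_le_left inf_le_left
  have KK : ⁅K, K⁆ ≤ K := commutator_le_left ..
  have gD : ∀ a ∈ A, ∀ L : Subgroup G, (∀ B, Co A B → D a ⊓ centralizer (B : Set G) ≤ L) → D a ≤ L :=
    fun a ha L => gen hA (by
      have : A ≤ normalizer ((K ⊓ centralizer {a} : Subgroup G) : Set G) := le_normalizer_inf hn
        ((show A ≤ centralizer {a} from fun x hx => mem_centralizer_singleton_iff.2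
          (congrArg Subtype.val (hA.is_comm.comm ⟨x, hx⟩ ⟨a, ha⟩))).trans le_normalizer)
      exact hD a ▸ le_normalizer_commutator this this)
      (hc.coprime_dvd_right (card_dvd_of_le ((DK a).trans KK)))
  let S := (Finset.univ.filter fun a => a ∈ A ∧ a ≠ 1).biUnion fun a => Finset.univ.filter (· ∈ D a)
  have hS : ∀ x, x ∈ S ↔ ∃ a ∈ A, a ≠ 1 ∧ x ∈ D a := fun x => by simp [S, and_assoc]
  have cS : S.card ≤ M := by
    refine (Finset.card_biUnion_le_card_mul _ _ m fun a ha => ?_).trans (hM ▸ Nat.mul_le_mul_right _ ?_)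
    · simp only [Finset.mem_filter, Finset.mem_univ, true_and] at ha
      rw [← Fintype.card_subtype, ← Nat.card_eq_fintype_card]
      exact h a ha.1 ha.2
    · rw [Nat.card_eq_fintype_card, Fintype.card_subtype]
      exact Finset.card_le_card fun a => by simp +contextual
  clear_value S
  have key : ∀ {B B' c d}, Co A B → Co A B' → c ∈ K ⊓ centralizer (B : Set G) →
      d ∈ K ⊓ centralizer (B' : Set G) → c * d * c⁻¹ * d⁻¹ ∈ S := fun {B B' c d} e e' h1 h2 => by
    obtain ⟨⟨a, ha⟩, a1⟩ := ne_bot_iff_exists_ne_one.1 (hr B B' e e')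
    exact (hS _).2 ⟨a, e.1 ha.1, fun e => a1 (Subtype.ext e), hD a ▸ commutator_mem_commutator
      ⟨h1.1, mem_centralizer_singleton_iff.2 (h1.2 a ha.1).symm⟩
      ⟨h2.1, mem_centralizer_singleton_iff.2 (h2.2 a ha.2).symm⟩⟩
  have SK : ∀ x ∈ S, x ∈ ⁅K, K⁆ := fun x hx => ((hS x).1 hx).elim fun a ha => DK a ha.2.2
  have h1 : K ≤ normalizer (closure (S : Set G) : Set G) := gen hA hn hc fun B hB c hc' => by
    refine mem_normalizer_fintype fun x hx => ?_
    refine (show closure (S : Set G) ≤ (closure (S : Set G)).comap (MulAut.conj c).toMonoidHom from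
      (closure_le _).2 fun x hx => ?_) hx
    obtain ⟨a, ha, a1, hx⟩ := (hS x).1 hx
    refine gD a ha _ (fun B' hB' d hd => ?_) hx
    have := mul_mem (subset_closure (key hB hB' hc' ⟨KK (DK a hd.1), hd.2⟩))
      (subset_closure ((hS d).2 ⟨a, ha, a1, hd.1⟩) : d ∈ closure (S : Set G))
    rwa [inv_mul_cancel_right] at this
  have h2 : ⁅K, K⁆ ≤ closure (S : Set G) := commutator_le.2 fun y hy x hx => by
    refine (gen (L := cm _ y) hA hn hc (fun B hB c hc' => ⟨h1 hc'.1, ?_⟩) hx).2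
    have := inv_mem (gen (L := cm _ c) hA hn hc (fun B' hB' d hd =>
      ⟨h1 hd.1, subset_closure (key hB hB' hc' hd)⟩) hy).2
    rwa [show (c * y * c⁻¹ * y⁻¹)⁻¹ = y * c * y⁻¹ * c⁻¹ by group] at this
  have ind : ∀ L : Subgroup ↥⁅K, K⁆, (∀ d : ↥⁅K, K⁆, d.1 ∈ S → ∀ B, Co A B →
      d.1 ∈ centralizer (B : Set G) → d ∈ L) → L = ⊤ := fun L hL => by
    refine eq_top_iff.2 fun x _ => ?_
    obtain ⟨y, hy, e⟩ := h2.trans ((closure_le (L.map ⁅K, K⁆.subtype)).2 fun x hx => by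
      obtain ⟨a, ha, a1, hx⟩ := (hS x).1 hx
      exact gD a ha (L.map ⁅K, K⁆.subtype) (fun B hB d hd => ⟨⟨d, DK a hd.1⟩, hL _ ((hS d).2 ⟨a, ha, a1, hd.1⟩) B hB hd.2, rfl⟩)
        hx) x.2
    exact (Subtype.ext e : y = x) ▸ hy
  refine LeU.Inv2.schur _ (Finset.univ.filter fun d : ↥⁅K, K⁆ => d.1 ∈ S)
    (ind _ fun d hd _ _ _ => subset_closure (by simpa using hd)) M _ b
    ((Finset.card_le_card_of_injOn Subtype.val (fun d hd => by simpa using hd)
      Subtype.val_injective.injOn).trans cS) m.factorial_pos (fun d hd => ?_) ?_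
  · obtain ⟨a, ha, a1, hd⟩ := (hS _).1 (Finset.mem_filter.1 hd).2
    exact Subtype.ext (orderOf_dvd_iff_pow_eq_one.1 (Nat.dvd_factorial (orderOf_pos _)
      ((Nat.le_of_dvd Nat.card_pos ((D a).orderOf_dvd_natCard hd)).trans (h a ha a1))))
  let f := MulAut.conjNormal (H := ⁅K, K⁆)
  have h3 : (f.comp ⁅K, K⁆.subtype).ker ≤ center _ := fun x hx => mem_center_iff.2 fun y =>
    Subtype.ext (mul_inv_eq_iff_eq_mul.1 (congrArg Subtype.val (DFunLike.congr_fun hx y))).symm
  refine (Nat.le_of_dvd (Nat.pos_of_ne_zero index_ne_zero_of_finite) (index_dvd_of_le h3)).trans ?_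
  rw [index_ker, MonoidHom.range_comp, range_subtype, hb]
  refine card_map_le' f hA le_normalizer_of_normal (hc.coprime_dvd_right (card_dvd_of_le KK))
    fun B hB => ?_
  have h4 : ∀ α : (⁅K, K⁆ ⊓ centralizer (B : Set G)).map f, ∀ d : {d : ↥⁅K, K⁆ // d.1 ∈ S ∧ ∃ B, Co A B ∧
      d.1 ∈ centralizer (B : Set G)}, (α.1 d.1).1 * d.1.1⁻¹ ∈ S := by
    rintro ⟨_, u, hu, rfl⟩ ⟨d, hd, B', hB', hd'⟩
    exact key hB hB' ⟨KK hu.1, hu.2⟩ ⟨KK d.2, hd'⟩
  refine (Nat.card_le_card_of_injective (fun α d => (⟨_, h4 α d⟩ : S)) fun α β e =>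
    Subtype.ext (MulEquiv.ext fun x => ?_)).trans ?_
  · exact (ind (α.1.toMonoidHom.eqLocus β.1.toMonoidHom) fun d hd B' hB' hd' => Subtype.ext
      (mul_right_cancel (congrArg Subtype.val (congrFun e ⟨d, hd, B', hB', hd'⟩)))).ge (mem_top x)
  · rw [Nat.card_fun, Nat.card_eq_fintype_card (α := S), Fintype.card_coe]
    refine (Nat.pow_le_pow_left (cS.trans M.le_succ) _).trans (Nat.pow_le_pow_right M.succ_pos ?_)
    refine (Nat.card_le_card_of_injective (fun d => (⟨d.1.1, d.2.1⟩ : S)) fun d d' e =>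
      Subtype.ext (Subtype.ext (Subtype.mk.inj e))).trans ?_
    rwa [Nat.card_eq_fintype_card, Fintype.card_coe]

theorem rank3 {A : Subgroup G} (hA : IsMulCommutative A) {q : ℕ} (hq : q.Prime) (hc : Nat.card A = q ^ 3)
    (he : ∀ a ∈ A, a ^ q = 1) {B B' : Subgroup G} (h : Co A B) (h' : Co A B') : B ⊓ B' ≠ ⊥ := fun e => by
  have n : ∀ {B C : Subgroup G}, B ≤ A → C ≤ A → C ≤ normalizer (B : Set G) := fun {B C} hB hC =>
    le_trans (show C ≤ centralizer (B : Set G) from fun x hx y hy =>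
      congrArg Subtype.val (hA.is_comm.comm ⟨y, hB hy⟩ ⟨x, hC hx⟩)) (centralizer_le_normalizer _)
  have k : ∀ {B}, Co A B → q ^ 2 ≤ Nat.card B := fun {B} ⟨h1, a, ha, e⟩ => by
    have h2 := card_sup_mul_card_inf (n h1 (zpowers_le.2 ha))
    have h3 : Nat.card (zpowers a) ≤ q := by
      rw [Nat.card_zpowers]; exact orderOf_le_of_pow_eq_one hq.pos (he a ha)
    have h4 : 0 < Nat.card ↥(B ⊓ zpowers a) := Nat.card_pos
    rw [e, hc] at h2
    refine Nat.le_of_mul_le_mul_right ?_ hq.pos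
    calc q ^ 2 * q = q ^ 3 * 1 := by ring
      _ ≤ _ := Nat.mul_le_mul_left _ h4
      _ ≤ _ := h2.le.trans (Nat.mul_le_mul_left _ h3)
  have h2 := card_sup_mul_card_inf (n h.1 h'.1)
  have h3 := card_le_of_le (sup_le h.1 h'.1)
  rw [e, card_bot, mul_one] at h2
  have := (Nat.mul_le_mul (k h) (k h')).trans (h2.ge.trans (h3.trans hc.le))
  rw [← pow_add] at this
  exact absurd ((Nat.pow_le_pow_iff_right hq.one_lt).1 this) (by norm_num)

end Cfsg.Agent.Gsh
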